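import Cfsg.Prelude.Def_Spor_Conway

/-!
The automorphism group of the Leech lattice acts faithfully modulo 13; the stabiliser of a norm-4
vector acts faithfully on the 23-dimensional quotient by the line of that vector.
-/

set_option autoImplicit false

namespace Cfsg.Agent.ConwayMod

open Cfsg

instance factPrimeThirteen : Fact (Nat.Prime 13) := ⟨by norm_num⟩

local notation "F13" => ZMod 13
local notation "V13" => GolayPt → ZMod 13

/-- Coordinates modulo 13. -/
def red : leechLattice →+ V13 where
  toFun v i := (((v : GolayPt → ℤ) i : ℤ) : F13)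
  map_zero' := by ext i; simp
  map_add' v w := by ext i; simp

theorem eight_single_mem (i : GolayPt) : (Pi.single i 8 : GolayPt → ℤ) ∈ leechSet := by
  refine Spor.mem_leechSet_of_const_mod_four _ 0 0 rfl (fun j => ?_) ?_
  · by_cases h : j = i
    · subst h; simp [Int.ModEq]
    · simp [Pi.single_eq_of_ne h]
  · rw [Finset.sum_pi_single']; simp [Int.ModEq]

/-- The lattice vector with a single coordinate 8. -/
def eightVec (i : GolayPt) : leechLattice :=
  ⟨Pi.single i 8, AddSubgroup.subset_closure (eight_single_mem i)⟩

/-- An element of the automorphism group as an additive map. -/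
def asHom (f : Co0) : leechLattice →+ leechLattice :=
  AddMonoidHom.mk' (fun v => (f : Equiv.Perm leechLattice) v) f.2.1

theorem dot_map (f : Co0) (v w : leechLattice) :
    dotInt ((asHom f v : leechLattice) : GolayPt → ℤ) ((asHom f w : leechLattice) : GolayPt → ℤ)
      = dotInt (v : GolayPt → ℤ) (w : GolayPt → ℤ) := by
  have key : ∀ a b : GolayPt → ℤ, 2 * dotInt a b = sqNorm (a + b) - sqNorm a - sqNorm b := by
    intro a b
    simp only [dotInt, sqNorm, Pi.add_apply, Finset.mul_sum, ← Finset.sum_sub_distrib]
    exact Finset.sum_congr rfl fun i _ => by ring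
  have h1 := key (asHom f v : leechLattice) (asHom f w : leechLattice)
  have h2 := key (v : GolayPt → ℤ) (w : GolayPt → ℤ)
  rw [← AddSubgroup.coe_add, ← map_add] at h1
  rw [← AddSubgroup.coe_add] at h2
  have hn : ∀ x, sqNorm ((asHom f x : leechLattice) : GolayPt → ℤ) = sqNorm (x : GolayPt → ℤ) := f.2.2
  rw [hn, hn, hn] at h1
  linarith

theorem decomp (v : leechLattice) : (8 : ℤ) • v = ∑ i, ((v : GolayPt → ℤ) i) • eightVec i := by
  apply Subtype.ext
  funext j
  simp [eightVec, Finset.sum_apply, Pi.single_apply, mul_comm, -Fintype.sum_option]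

/-- The linear map induced on coordinates modulo 13. -/
def modMap (f : Co0) : V13 →ₗ[F13] V13 where
  toFun x := ∑ i, (5 * x i) • red (asHom f (eightVec i))
  map_add' x y := by
    simp only [Pi.add_apply, mul_add, add_smul, Finset.sum_add_distrib]
  map_smul' c x := by
    simp only [Pi.smul_apply, smul_eq_mul, RingHom.id_apply, Finset.smul_sum, smul_smul]
    exact Finset.sum_congr rfl fun i _ => by ring_nf

theorem modMap_red (f : Co0) (v : leechLattice) : modMap f (red v) = red (asHom f v) := by
  have h := congrArg (fun x => red (asHom f x)) (decomp v)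
  simp only [map_zsmul, map_sum] at h
  have hx : ∀ (z : ℤ) (x : V13), z • x = (z : F13) • x := fun z x => (Int.cast_smul_eq_zsmul F13 z x).symm
  simp only [hx] at h
  show ∑ i, (5 * red v i) • red (asHom f (eightVec i)) = red (asHom f v)
  rw [show (∑ i, (5 * red v i) • red (asHom f (eightVec i)))
      = (5 : F13) • ∑ i, (((v : GolayPt → ℤ) i : ℤ) : F13) • red (asHom f (eightVec i)) by
    rw [Finset.smul_sum]; exact Finset.sum_congr rfl fun i _ => by rw [smul_smul]; rfl, ← h, smul_smul]
  have : (5 : F13) * ((8 : ℤ) : F13) = 1 := by decide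
  rw [this, one_smul]

theorem ext_red {A A' : V13 →ₗ[F13] V13} (h : ∀ v, A (red v) = A' (red v)) : A = A' := by
  refine LinearMap.pi_ext fun i c => ?_
  have : (Pi.single i c : V13) = (5 * c) • red (eightVec i) := by
    funext j
    by_cases hj : j = i
    · subst hj
      have h58 : (5 : F13) * 8 = 1 := by decide
      simp [red, eightVec]
      linear_combination -c * h58
    · simp [red, eightVec, Pi.single_eq_of_ne hj]
  rw [this, map_smul, map_smul, h]

theorem modMap_one : modMap 1 = 1 := ext_red fun v => by
  rw [modMap_red]; rfl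

theorem modMap_mul (f g : Co0) : modMap (f * g) = modMap f * modMap g := ext_red fun v => by
  rw [modMap_red, Module.End.mul_apply, modMap_red, modMap_red]; rfl

/-- An automorphism congruent to the identity modulo 13 is the identity. -/
theorem eq_one_of_modMap_eq_one {f : Co0} (h : modMap f = 1) : f = 1 := by
  have key : ∀ i, asHom f (eightVec i) = eightVec i := by
    intro i
    set w := ((asHom f (eightVec i) : leechLattice) : GolayPt → ℤ) with hw
    have hn : ∑ j, w j ^ 2 = 64 := by
      calc ∑ j, w j ^ 2 = sqNorm (Pi.single i 8 : GolayPt → ℤ) := f.2.2 (eightVec i)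
        _ = 64 := by
          unfold sqNorm
          rw [Finset.sum_eq_single i (fun x _ hx => by simp [Pi.single_eq_of_ne hx])
            (fun hx => absurd (Finset.mem_univ i) hx)]
          simp
    have hmod : ∀ j, (13 : ℤ) ∣ w j - (Pi.single i 8 : GolayPt → ℤ) j := by
      intro j
      have e := congrFun (show red (asHom f (eightVec i)) = red (eightVec i) by
        rw [← modMap_red, h]; rfl) j
      have e' : ((w j : ℤ) : F13) = (((Pi.single i 8 : GolayPt → ℤ) j : ℤ) : F13) := e
      rw [ZMod.intCast_eq_intCast_iff_dvd_sub] at e'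
      exact dvd_sub_comm.1 e'
    have hb : ∀ j, w j ^ 2 ≤ 64 := fun j =>
      hn ▸ Finset.single_le_sum (fun k _ => sq_nonneg (w k)) (Finset.mem_univ j)
    apply Subtype.ext
    funext j
    show w j = (Pi.single i 8 : GolayPt → ℤ) j
    obtain ⟨k, hk⟩ := hmod j
    have h1 : -8 ≤ w j := by nlinarith [hb j]
    have h2 : w j ≤ 8 := by nlinarith [hb j]
    by_cases hj : j = i
    · subst hj
      simp only [Pi.single_eq_same] at hk ⊢
      have : k = 0 ∨ k = -1 := by omega
      rcases this with rfl | rfl
      · omega
      · exfalso
        have hj5 : w j = -5 := by omega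
        have hsum : ∑ x ∈ Finset.univ.erase j, w x ^ 2 = 39 := by
          have := Finset.sum_erase_add Finset.univ (fun x => w x ^ 2) (Finset.mem_univ j)
          rw [hn, hj5] at this
          linarith
        have hz : ∑ x ∈ Finset.univ.erase j, w x ^ 2 = 0 := by
          refine Finset.sum_eq_zero fun x hx => ?_
          have hxj := (Finset.mem_erase.1 hx).1
          obtain ⟨l, hl⟩ := hmod x
          rw [Pi.single_eq_of_ne hxj, sub_zero] at hl
          have hle := Finset.single_le_sum (fun y _ => sq_nonneg (w y)) hx
          rw [hsum] at hle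
          have : l = 0 := by nlinarith
          rw [hl, this]; norm_num
        omega
    · rw [Pi.single_eq_of_ne hj] at hk ⊢
      omega
  apply Subtype.ext
  refine Equiv.ext fun v => ?_
  have h8 : (8 : ℤ) • asHom f v = (8 : ℤ) • v := by
    rw [← map_zsmul, decomp, map_sum]
    simp only [map_zsmul, key]
  apply Subtype.ext
  funext j
  have := congrFun (congrArg Subtype.val h8) j
  simp only [AddSubgroup.coe_zsmul, Pi.smul_apply, smul_eq_mul] at this
  have := mul_left_cancel₀ (by norm_num : (8 : ℤ) ≠ 0) this
  exact this

/-- The image of the fixed vector. -/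
def u13 : V13 := red Spor.leechU

/-- The line of the fixed vector. -/
abbrev uLine : Submodule F13 V13 := Submodule.span F13 {u13}

def toCo0 : Spor.Co2 →* Co0 := Subgroup.inclusion inf_le_left

theorem modMap_u (g : Spor.Co2) : modMap (toCo0 g) u13 = u13 := by
  rw [u13, modMap_red]
  exact congrArg red (MulAction.mem_stabilizer_iff.1 g.2.2)

theorem uLine_le (g : Spor.Co2) : uLine ≤ uLine.comap (modMap (toCo0 g)) := by
  rw [Submodule.span_le, Set.singleton_subset_iff, SetLike.mem_coe, Submodule.mem_comap, modMap_u]
  exact Submodule.mem_span_singleton_self _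

/-- The action on the quotient. -/
def quotAction : Spor.Co2 →* Module.End F13 (V13 ⧸ uLine) where
  toFun g := uLine.mapQ uLine (modMap (toCo0 g)) (uLine_le g)
  map_one' := by
    refine Submodule.linearMap_qext _ (LinearMap.ext fun x => ?_)
    simp [modMap_one]
  map_mul' g h := by
    refine Submodule.linearMap_qext _ (LinearMap.ext fun x => ?_)
    simp [modMap_mul]

theorem finrank_quot : Module.finrank F13 (V13 ⧸ uLine) = 23 := by
  have h0 : u13 ≠ 0 := fun h => by
    have := congrFun h none
    revert this
    decide
  have := uLine.finrank_quotient_add_finrank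
  rw [finrank_span_singleton h0] at this
  simp at this
  omega

theorem quotAction_injective : Function.Injective quotAction := by
  rw [injective_iff_map_eq_one]
  intro g hg
  let D : V13 →ₗ[F13] F13 := ∑ i, u13 i • LinearMap.proj i
  have hD : ∀ x, D x = ∑ i, u13 i * x i := fun x => by simp [D]
  have hinv : ∀ v, D (red (asHom (toCo0 g) v)) = D (red v) := by
    intro v
    have hd := dot_map (toCo0 g) Spor.leechU v
    have hu : asHom (toCo0 g) Spor.leechU = Spor.leechU := MulAction.mem_stabilizer_iff.1 g.2.2
    rw [hu] at hd
    have := congrArg (fun z : ℤ => (z : F13)) hd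
    rw [hD, hD]
    simpa [dotInt, red, u13] using this
  have hu2 : D u13 ≠ 0 := by
    rw [hD]; decide
  have : modMap (toCo0 g) = 1 := by
    refine ext_red fun v => ?_
    have hq := LinearMap.congr_fun hg (Submodule.Quotient.mk (red v))
    simp only [quotAction, MonoidHom.coe_mk, OneHom.coe_mk, Submodule.mapQ_apply,
      Module.End.one_apply] at hq
    rw [Submodule.Quotient.eq, Submodule.mem_span_singleton] at hq
    obtain ⟨c, hc⟩ := hq
    have hDc := congrArg D hc
    rw [map_smul, map_sub, modMap_red, hinv, sub_self, smul_eq_mul, mul_eq_zero] at hDc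
    rw [hDc.resolve_right hu2, zero_smul] at hc
    exact (sub_eq_zero.1 hc.symm).trans rfl
  have h1 := eq_one_of_modMap_eq_one this
  exact Subtype.ext (congrArg Subtype.val h1 : _)

end Cfsg.Agent.ConwayMod
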